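import Cfsg.Agent.H0.QSz8.D
set_option maxRecDepth 100000
set_option Elab.async false
set_option linter.unusedSectionVars false
namespace H0.QSz8
open H0 BN 
theorem defs_ok : DefsOK R.p defs 10 := defsOK_of_chk c6
universe u
variable {G : Type u} [Group G] [Finite G] (m0 : Model G) (h0 : m0.R = H0.MSz8.R)
noncomputable def m : Model G := m0.ext (lg := nat_lit 7) (N := nat_lit 128) (l := H0.MSz8.nl) h0 nl nl_ok 10 rfl defs defs_ok (by decide +kernel)
theorem mR : (m m0 h0).R = R := rfl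
variable (hb : m0.pst [2, 1, 0] = ⊥) (hc : Nat.card G = 29120)
include h0 hb hc
theorem base : (m m0 h0).pst [2, 1, 0] = ⊥ := hb
omit hb hc in
theorem ch2_ok : (m m0 h0).ChainOK ch2 [] := ((m m0 h0).chain_cons [0, 1, 2, 3, 4, 5] (Model.via _ (mR m0 h0) (fun R => Model.fixP R [] [[10], [11], [12], [13], [14], [15]]) c0) (Model.via _ (mR m0 h0) (fun R => Model.growP R [[10], [11], [12], [13], [14], [15]] [0, 1, 2, 3, 4, 5] 1 64) c1) ((m m0 h0).chain_nil _))
theorem pb2 : PBound G (2 ^ (2 + 1)) :=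
  (m m0 h0).pbound C2 10 (k := 455) (K := 4) (e := 3) hc (lt_step_all (a := 0) (k := 21) (lt_zero_all _) ((m m0 h0).rules_of (base m0 h0 hb hc) (Model.via _ (mR m0 h0) (fun R => rulesB R [2, 1, 0] (fun i => sh 10 (C2.L i)) (fun i => sh 10 (C2.R i)) 0 21) c2))) (ch2_ok m0 h0) (by decide +kernel) tests2 (all_take_done (all_take_step (all_take_zero _ tests2) (allL_spec c3)) (by decide +kernel))
    av2 FS2 YS2 rows2 (all_take_done (all_take_step (all_take_zero _ rows2) (allL_spec c4)) (by decide +kernel)) c5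
theorem bound (Γ : Type u) [Group Γ] [Finite Γ] (σ : Γ →* G) (hσ : Cfsg.IsStemExtension σ) : Nat.card σ.ker ∣ 4 :=
  card_ker_dvd (M := 13) (k := 6) (L := [2]) hc (by decide +kernel) (ex_bound (pb2 m0 h0 hb hc) (by decide) ex_bound_nil) Γ σ hσ
end H0.QSz8
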